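-- Team project PHYP (S5974), regime [TOE], package [CNTINHE] (helper61): the number of hyperbolic
-- m-spaces inside the fixed space is prime to r, in ANY characteristic (port of
-- Helper61/OHyp/CntIn.lean: orbit-stabilizer for the pointwise stabilizer of the moved space,
-- transitive by [CNTWITTHE], of order prime to r by [CNTCAUCHYE]).
import Cfsg.Agent.Lib.Helper23.PHyp.TOEDefs
import Cfsg.Agent.Lib.Helper61.OHyp.CntIn

set_option autoImplicit false
open scoped MatrixGroups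
open Matrix

namespace Cfsg.Agent.Lib.Helper61.PHyp

open Cfsg.Agent.Lib.Helper23.OHyp Cfsg.Agent.Lib.Helper44.OElp Cfsg.Agent.Lib.Helper23.PHyp
open Cfsg.Agent.Lib.Helper61.OHyp

universe u

/-- [CNTINHE] -/
theorem pkgCntInHE_of (hGeomE : PkgGeomE.{u}) (hSplitE : PkgSplitE.{u})
    (hWitt : PkgCntWittHE.{u}) (hCauchy : PkgCntCauchyE.{u}) : PkgCntInHE.{u} := by
  intro F _ _ ι _ _ Q r x hStd m hm hlt hltc
  obtain ⟨hNdFix, hNdMov, hPerp, hCompl, -, -⟩ := hSplitE F ι Q r x hStd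
  have hbil := hStd.nondeg.polar_bilinear
  -- the fixer preserves the fixed space
  have hkeep : ∀ g ∈ fixer Q x, ∀ v ∈ fixSp x, (g : Matrix ι ι F) *ᵥ v ∈ fixSp x := by
    rintro g ⟨hg, hgfix⟩ v hv
    have htop : (g : Matrix ι ι F) *ᵥ v ∈ fixSp x ⊔ movSp x := by
      rw [hCompl.sup_eq_top]; exact Submodule.mem_top
    obtain ⟨a, ha, b, hb, hab⟩ := Submodule.mem_sup.mp htop
    have hb0 : b = 0 := by
      by_contra hb0
      obtain ⟨-, ⟨c, hc, hcb⟩⟩ := hNdMov b hb hb0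
      apply hcb
      have h1 : QuadraticMap.polar Q ((g : Matrix ι ι F) *ᵥ v) c = 0 := by
        have h2 := polar_isom hg v c
        rw [hgfix c hc] at h2
        rw [h2]
        exact hPerp v hv c hc
      rw [← hab, hbil.add_left, hPerp a ha c hc, zero_add] at h1
      exact h1
    rw [← hab, hb0, add_zero]
    exact ha
  let _inst := actY Q x m hkeep
  -- nonempty
  obtain ⟨W₀, hW₀C, hW₀Nd, hW₀dim, hW₀Plus⟩ :=
    hGeomE F ι Q hStd.nondeg (fixSp x) hNdFix m True hm (by omega) (fun _ => trivial)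
  let y₀ : Cfsg.Agent.Lib.Helper61.OHyp.HypIn Q x m :=
    ⟨⟨W₀, hW₀dim, hW₀Nd, hW₀Plus.mpr trivial⟩, hW₀C⟩
  -- transitivity
  have htrans : MulAction.IsPretransitive ↥(fixer Q x)
      (Cfsg.Agent.Lib.Helper61.OHyp.HypIn Q x m) := by
    refine ⟨fun a b => ?_⟩
    obtain ⟨g, hg, hgfix, hgmap⟩ := hWitt F ι Q r x hStd m a.1 b.1 a.2 b.2
    exact ⟨⟨g, hg, hgfix⟩, Subtype.ext (Subtype.ext hgmap)⟩
  have hdvd : Nat.card (Cfsg.Agent.Lib.Helper61.OHyp.HypIn Q x m) ∣ Nat.card ↥(fixer Q x) := by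
    rw [← MulAction.index_stabilizer_of_transitive ↥(fixer Q x) y₀]
    exact Subgroup.index_dvd_card _
  intro hr
  have hr' : r ∣ Nat.card ↥(fixer Q x) := hr.trans hdvd
  have : Fact r.Prime := ⟨hStd.prime⟩
  obtain ⟨g, hg⟩ := exists_prime_orderOf_dvd_card' r hr'
  have hpow : (g : GL ι F) ^ r = 1 := by
    rw [← Subgroup.coe_pow, ← hg, pow_orderOf_eq_one, Subgroup.coe_one]
  have h1 : (g : GL ι F) = 1 := hCauchy F ι Q r x hStd hltc g.1 g.2.1 g.2.2 hpow
  have h2 : g = 1 := Subtype.ext h1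
  rw [h2, orderOf_one] at hg
  exact hStd.prime.one_lt.ne hg

end Cfsg.Agent.Lib.Helper61.PHyp
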