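-- Team project PHYP (S5974), regime [TOE], package [CNTWITTHE] (helper61): the pointwise
-- stabilizer of the moved space is transitive on the hyperbolic m-spaces inside the fixed space,
-- in ANY characteristic.  Port of Helper73/OHyp/CntWitt.lean (hyperbolic families from
-- Helper99.Quad3 + Witt's lemma S0750, both characteristic-free); only Std -> StdE and
-- PkgSplit -> PkgSplitE change.
import Cfsg.Agent.Lib.Helper23.PHyp.TOEDefs
import Cfsg.Agent.Lib.Helper73.OHyp.CntWitt

set_option autoImplicit false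
open scoped MatrixGroups
open Matrix Module

namespace Cfsg.Agent.Lib.Helper61.PHyp

open Cfsg.Agent.Lib.Helper23.OHyp Cfsg.Agent.Lib.Helper99 Cfsg.Agent.Lib.Helper14
open Cfsg.Agent.Lib.Helper44.OElp Cfsg.Agent.Lib.Helper23.PHyp Cfsg.Agent.Lib.Helper73.OHyp

universe u

/-- [CNTWITTHE] -/
theorem pkgCntWittHE_of (hS : PkgSplitE.{u}) : PkgCntWittHE.{u} := by
  intro F _ _ ι _ _ Q r x hstd m W W' hW hW'
  obtain ⟨_, _, hPerp, _, _, _⟩ := hS F ι Q r x hstd
  obtain ⟨Q', hQ'coe, hQ'nd⟩ := exists_qf hstd.nondeg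
  subst hQ'coe
  obtain ⟨W, hWm, hWnd, U, hUW, hUts, hUdim⟩ := W
  obtain ⟨W', hW'm, hW'nd, U', hU'W', hU'ts, hU'dim⟩ := W'
  simp only at hW hW'
  obtain ⟨k, hk⟩ : ∃ k, finrank F U = k := ⟨_, rfl⟩
  have hk' : finrank F U' = k := by omega
  have hWk : finrank F W = 2 * k := by omega
  have hW'k : finrank F W' = 2 * k := by omega
  have hndW : QNondegOn Q' W := by
    intro u hu h
    by_contra hu0
    obtain ⟨y, hy, hne⟩ := (hWnd u hu hu0).2
    exact hne (h y hy)
  have hndW' : QNondegOn Q' W' := by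
    intro u hu h
    by_contra hu0
    obtain ⟨y, hy, hne⟩ := (hW'nd u hu hu0).2
    exact hne (h y hy)
  obtain ⟨e, f, hH, hef⟩ := hyp_of_singular Q' k W U hndW hUW hUts hk.ge
  obtain ⟨e', f', hH', hef'⟩ := hyp_of_singular Q' k W' U' hndW' hU'W' hU'ts hk'.ge
  -- a basis of the moved space
  obtain ⟨bN, hbN⟩ : ∃ bN : Basis (Fin (finrank F ↥(movSp x))) F ↥(movSp x), bN = Module.finBasis F _ :=
    ⟨_, rfl⟩
  obtain ⟨z, hzdef⟩ : ∃ z : Fin (finrank F ↥(movSp x)) → (ι → F), z = fun j => (bN j : ι → F) :=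
    ⟨_, rfl⟩
  have hz : LinearIndependent F z := by
    rw [hzdef]
    exact bN.linearIndependent.map' (movSp x).subtype (Submodule.ker_subtype _)
  have hzN : ∀ j, z j ∈ movSp x := by
    intro j
    rw [hzdef]
    exact (bN j).2
  have hperp : ∀ (w : ι → F), w ∈ fixSp x → ∀ j, QuadraticMap.polar Q' (z j) w = 0 := by
    intro w hw j
    rw [QuadraticMap.polar_comm]
    exact hPerp w hw (z j) (hzN j)
  have hp : ∀ j i, QuadraticMap.polar Q' (z j) (e i) = 0 ∧ QuadraticMap.polar Q' (z j) (f i) = 0 :=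
    fun j i => ⟨hperp _ (hW (hef i).1) j, hperp _ (hW (hef i).2) j⟩
  have hp' : ∀ j i, QuadraticMap.polar Q' (z j) (e' i) = 0 ∧
      QuadraticMap.polar Q' (z j) (f' i) = 0 :=
    fun j i => ⟨hperp _ (hW' (hef' i).1) j, hperp _ (hW' (hef' i).2) j⟩
  have hli := hyp_li Q' e f hH z hz hp
  have hli' := hyp_li Q' e' f' hH' z hz hp'
  obtain ⟨bX, hbX⟩ : ∃ bX : Basis _ F _, bX = Basis.span hli := ⟨_, rfl⟩
  obtain ⟨bY, hbY⟩ : ∃ bY : Basis _ F _, bY = Basis.span hli' := ⟨_, rfl⟩
  have hbXc : ∀ i, ((bX i : _) : ι → F) = (Sum.elim (Sum.elim e f) z) i := by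
    intro i; rw [hbX]; exact congrArg Subtype.val (Basis.span_apply hli i)
  have hbYc : ∀ i, ((bY i : _) : ι → F) = (Sum.elim (Sum.elim e' f') z) i := by
    intro i; rw [hbY]; exact congrArg Subtype.val (Basis.span_apply hli' i)
  obtain ⟨φ, hφdef⟩ : ∃ φ, φ = bX.equiv bY (Equiv.refl _) := ⟨_, rfl⟩
  have hφb : ∀ i, φ (bX i) = bY i := by
    intro i; rw [hφdef, Basis.equiv_apply]; rfl
  have hφ : ∀ y, Q' (φ y : ι → F) = Q' (y : ι → F) := by
    intro y
    have h1 : (y : ι → F) = ∑ i, bX.repr y i • (Sum.elim (Sum.elim e f) z) i := by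
      have h0 := congrArg Subtype.val (bX.sum_repr y)
      exact h0.symm.trans (by
        rw [Submodule.coe_sum]
        exact Finset.sum_congr rfl (fun i _ => by rw [Submodule.coe_smul, hbXc]))
    have h2 : (φ y : ι → F) = ∑ i, bX.repr y i • (Sum.elim (Sum.elim e' f') z) i := by
      have h0 : φ y = ∑ i, bX.repr y i • bY i := by
        conv_lhs => rw [← bX.sum_repr y]
        rw [map_sum]
        apply Finset.sum_congr rfl
        intro i _
        rw [map_smul, hφb]
      rw [h0, Submodule.coe_sum]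
      exact Finset.sum_congr rfl (fun i _ => by rw [Submodule.coe_smul, hbYc])
    rw [h1, h2, q_comb Q' e f hH z hp, q_comb Q' e' f' hH' z hp']
  obtain ⟨g, hgQ, hgφ⟩ := Cfsg.Agent.S0750.result Q' hQ'nd _ _ φ hφ
  have hgb : ∀ i, g ((Sum.elim (Sum.elim e f) z) i) = (Sum.elim (Sum.elim e' f') z) i := by
    intro i
    have h1 := hgφ (bX i)
    rw [hbXc, hφb, hbYc] at h1
    exact h1
  obtain ⟨A, hAdef⟩ : ∃ A : Matrix ι ι F, A = LinearMap.toMatrix' (g : (ι → F) →ₗ[F] (ι → F)) :=
    ⟨_, rfl⟩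
  have hAg : Matrix.toLin' A = (g : (ι → F) →ₗ[F] (ι → F)) := by
    rw [hAdef, Matrix.toLin'_toMatrix']
  have hA : ∀ v, A *ᵥ v = g v := by
    intro v
    rw [← Matrix.toLin'_apply, hAg]
    rfl
  have hAQ : ∀ v, Q' (A *ᵥ v) = Q' v := fun v => by rw [hA]; exact hgQ v
  refine ⟨(mkIsom Q' hQ'nd A hAQ : ↥(Cfsg.isometryGroup F ⇑Q')), (mkIsom Q' hQ'nd A hAQ).2, ?_, ?_⟩
  · intro v hv
    show A *ᵥ v = v
    rw [hA]
    have h1 : v = ∑ j, bN.repr ⟨v, hv⟩ j • z j := by
      have h0 := congrArg Subtype.val (bN.sum_repr ⟨v, hv⟩)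
      exact h0.symm.trans (by
        rw [Submodule.coe_sum, hzdef]
        exact Finset.sum_congr rfl (fun j _ => by rw [Submodule.coe_smul]))
    conv_lhs => rw [h1]
    conv_rhs => rw [h1]
    rw [map_sum]
    apply Finset.sum_congr rfl
    intro j _
    rw [map_smul]
    congr 1
    exact hgb (Sum.inr j)
  · show W.map (Matrix.toLin' A) = W'
    rw [hAg]
    have hli1 : LinearIndependent F (Sum.elim e f) := hli.comp Sum.inl Sum.inl_injective
    have hli1' : LinearIndependent F (Sum.elim e' f') := hli'.comp Sum.inl Sum.inl_injective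
    have hWs : Submodule.span F (Set.range (Sum.elim e f)) = W := by
      apply Submodule.eq_of_le_of_finrank_eq
      · rw [Submodule.span_le]
        rintro _ ⟨i, rfl⟩
        cases i with
        | inl i => exact (hef i).1
        | inr i => exact (hef i).2
      · rw [finrank_span_eq_card hli1, hWk]
        simp
        omega
    have hW's : Submodule.span F (Set.range (Sum.elim e' f')) = W' := by
      apply Submodule.eq_of_le_of_finrank_eq
      · rw [Submodule.span_le]
        rintro _ ⟨i, rfl⟩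
        cases i with
        | inl i => exact (hef' i).1
        | inr i => exact (hef' i).2
      · rw [finrank_span_eq_card hli1', hW'k]
        simp
        omega
    rw [← hWs, ← hW's, Submodule.map_span, ← Set.range_comp]
    congr 2
    funext i
    exact hgb (Sum.inl i)

end Cfsg.Agent.Lib.Helper61.PHyp
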